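import Cfsg.Agent.H696.PSq.Defs
import Cfsg.Agent.PLocal.ElemAbSup

/-!
# S4844, team PSQ: PS-2a, the affine plane of an elementary abelian group of order `p ^ 3`
-/

set_option autoImplicit false

namespace Cfsg.Agent.H118.PSq.Geom

open Cfsg Subgroup Cfsg.Agent.H696.PSq

universe u

variable {C : Type u} [Group C] [Finite C] {p : ℕ} [Fact p.Prime] {P A : Subgroup C}

omit [Finite C] in
theorem comm_of (hc : IsMulCommutative P) {x y : C} (hx : x ∈ P) (hy : y ∈ P) : x * y = y * x := by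
  have h := hc.is_comm.comm (⟨x, hx⟩ : P) ⟨y, hy⟩
  exact congrArg Subtype.val h

omit [Finite C] in
theorem csup (hc : IsMulCommutative P) {X Y : Subgroup C} (hX : X ≤ P) (hY : Y ≤ P) :
    Nat.card (X ⊔ Y : Subgroup C) * Nat.card (X ⊓ Y : Subgroup C) = Nat.card X * Nat.card Y := by
  refine Cfsg.Agent.PLocal.ElemAbSup.card_sup_mul_card_inf ?_
  intro y hy
  rw [mem_centralizer_iff]
  intro x hx
  exact comm_of hc (hX hx) (hY hy)

theorem eq_of_le {X Y : Subgroup C} (h : X ≤ Y) (hc : Nat.card X = Nat.card Y) : X = Y :=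
  Subgroup.eq_of_le_of_card_ge h hc.ge

/-- A subgroup of order `p` is contained in `F` or meets `F` trivially. -/
theorem le_or_inf {E F : Subgroup C} (hE : Nat.card E = p) : E ≤ F ∨ E ⊓ F = ⊥ := by
  have h1 : Nat.card (E ⊓ F : Subgroup C) ∣ p := hE ▸ Subgroup.card_dvd_of_le inf_le_left
  rcases (Nat.dvd_prime (Fact.out : p.Prime)).1 h1 with h | h
  · exact Or.inr (Subgroup.card_eq_one.1 h)
  · left
    have := eq_of_le (inf_le_left : E ⊓ F ≤ E) (by rw [h, hE])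
    rw [← this]
    exact inf_le_right

theorem one_lt : 1 < p := (Fact.out : p.Prime).one_lt

theorem ppos : 0 < p := (Fact.out : p.Prime).pos

/-- Different subgroups of order `p ^ 2` of `P` meet in a subgroup of order `p`. -/
theorem card_inf (hP : Nat.card P = p ^ 3) (hc : IsMulCommutative P) {X Y : Subgroup C} (hX : X ≤ P)
    (hY : Y ≤ P) (cX : Nat.card X = p ^ 2) (cY : Nat.card Y = p ^ 2) (hne : X ≠ Y) :
    Nat.card (X ⊓ Y : Subgroup C) = p := by
  have h1 := csup hc hX hY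
  rw [cX, cY] at h1
  have h2 : Nat.card (X ⊔ Y : Subgroup C) ∣ p ^ 3 := hP ▸ Subgroup.card_dvd_of_le (sup_le hX hY)
  have h3 : Nat.card (X ⊓ Y : Subgroup C) ∣ p ^ 2 := cX ▸ Subgroup.card_dvd_of_le inf_le_left
  obtain ⟨i, hi, h4⟩ := (Nat.dvd_prime_pow (Fact.out : p.Prime)).1 h2
  obtain ⟨j, hj, h5⟩ := (Nat.dvd_prime_pow (Fact.out : p.Prime)).1 h3
  rw [h4, h5, ← pow_add, ← pow_add] at h1
  have h6 := Nat.pow_right_injective (Fact.out : p.Prime).two_le h1
  have h7 : j ≠ 2 := by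
    intro h
    subst h
    apply hne
    have e1 := eq_of_le (inf_le_left : X ⊓ Y ≤ X) (by rw [h5, cX])
    have e2 := eq_of_le (inf_le_right : X ⊓ Y ≤ Y) (by rw [h5, cY])
    rw [← e1]
    exact e2
  have h8 : j = 1 := by omega
  rw [h5, h8, pow_one]

/-- Joins with a subgroup of order `p`. -/
theorem card_sup (hc : IsMulCommutative P) {E F : Subgroup C} (hE : E ≤ P) (hF : F ≤ P) (cE : Nat.card E = p)
    (hne : ¬ E ≤ F) : Nat.card (E ⊔ F : Subgroup C) = p * Nat.card F := by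
  have h1 := csup hc hE hF
  have h2 : E ⊓ F = ⊥ := (le_or_inf cE).resolve_left hne
  rw [h2, cE] at h1
  simpa using h1

omit [Finite C] in
theorem card_zpowers (he : ∀ x ∈ P, x ^ p = 1) {x : C} (hx : x ∈ P) (h1 : x ≠ 1) : Nat.card (zpowers x) = p := by
  rw [Nat.card_zpowers]
  exact orderOf_eq_prime (he x hx) h1

/-- The number of elements of `X` outside `E`. -/
theorem card_diff {X E : Subgroup C} (h : E ≤ X) :
    Nat.card {x : C // x ∈ X ∧ x ∉ E} = Nat.card X - Nat.card E := by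
  classical
  have h1 : Nat.card {x : C // x ∈ X ∧ x ∉ E} = ((X : Set C) \ (E : Set C)).ncard := rfl
  rw [h1, Set.ncard_sdiff h (Set.toFinite _)]
  rfl

/-- Counting with constant fibres. -/
theorem card_fiber {α β : Type*} [Finite α] [Finite β] (f : α → β) (k : ℕ)
    (h : ∀ b, Nat.card {a // f a = b} = k) : Nat.card α = Nat.card β * k := by
  classical
  have := Fintype.ofFinite β
  rw [Nat.card_congr (Equiv.sigmaFiberEquiv f).symm, Nat.card_sigma, Finset.sum_congr rfl (fun b _ => h b),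
    Finset.sum_const, Nat.card_eq_fintype_card, smul_eq_mul, Finset.card_univ]

omit [Finite C] in
theorem not_le_of_dir {R X : Subgroup C} (hA : Nat.card A = p) (hR : R ⊓ A = ⊥) (hX : A ≤ X) : R ≠ X := by
  rintro rfl
  have h1 : R ⊓ A = A := inf_eq_right.2 hX
  rw [h1] at hR
  rw [hR, Subgroup.card_bot] at hA
  exact absurd hA (one_lt (p := p)).ne

section main

variable (hP : Nat.card P = p ^ 3) (hc : IsMulCommutative P) (he : ∀ x ∈ P, x ^ p = 1) (hAP : A ≤ P)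
  (hA : Nat.card A = p)

include hP hc hA in
/-- A point and a direction meet in a subgroup of order `p`. -/
theorem card_pt_inf_dir (R : Pt p P A) (X : Dir p P A) :
    Nat.card ((R : Subgroup C) ⊓ (X : Subgroup C) : Subgroup C) = p :=
  card_inf hP hc R.2.1 X.2.1 R.2.2.1 X.2.2.1 (not_le_of_dir hA R.2.2.2 X.2.2.2)

omit [Finite C] [Fact p.Prime] in
theorem pt_inf_dir_inf (R : Pt p P A) (X : Dir p P A) :
    ((R : Subgroup C) ⊓ (X : Subgroup C)) ⊓ A = ⊥ := by
  exact eq_bot_iff.2 ((inf_le_inf inf_le_left le_rfl).trans (le_of_eq R.2.2.2))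

include hc hAP hA in
/-- The direction spanned by a subgroup of order `p`. -/
theorem dir_of {E : Subgroup C} (hE : E ≤ P) (cE : Nat.card E = p) (hne : E ≠ A) :
    E ⊔ A ≤ P ∧ Nat.card (E ⊔ A : Subgroup C) = p ^ 2 ∧ A ≤ E ⊔ A := by
  refine ⟨sup_le hE hAP, ?_, le_sup_right⟩
  rw [card_sup hc hE hAP cE, hA, sq]
  intro h
  exact hne (eq_of_le h (by rw [cE, hA]))

include hP hc hAP hA in
theorem rel (R R' : Pt p P A) (hne : R ≠ R') :
    ∃! X : Dir p P A, (R : Subgroup C) ⊓ X = (R' : Subgroup C) ⊓ X := by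
  have h0 : (R : Subgroup C) ≠ (R' : Subgroup C) := fun h => hne (Subtype.ext h)
  have h1 := card_inf hP hc R.2.1 R'.2.1 R.2.2.1 R'.2.2.1 h0
  have hEP : (R : Subgroup C) ⊓ (R' : Subgroup C) ≤ P := inf_le_left.trans R.2.1
  have h2 : (R : Subgroup C) ⊓ (R' : Subgroup C) ≠ A := by
    intro h
    have h3 : A ≤ (R : Subgroup C) := (le_of_eq h.symm).trans inf_le_left
    exact not_le_of_dir hA R.2.2.2 h3 rfl
  have h3 := dir_of hc hAP hA hEP h1 h2
  have key : ∀ (S : Pt p P A) (X : Dir p P A), (R : Subgroup C) ⊓ (R' : Subgroup C) ≤ S →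
      (R : Subgroup C) ⊓ (R' : Subgroup C) ≤ X → (S : Subgroup C) ⊓ X = (R : Subgroup C) ⊓ (R' : Subgroup C) := by
    intro S X hS hX
    exact (eq_of_le (le_inf hS hX) (by rw [h1, card_pt_inf_dir hP hc hA S X])).symm
  refine ⟨⟨_, h3⟩, ?_, ?_⟩
  · show (R : Subgroup C) ⊓ _ = (R' : Subgroup C) ⊓ _
    rw [key R ⟨_, h3⟩ inf_le_left le_sup_left, key R' ⟨_, h3⟩ inf_le_right le_sup_left]
  · intro Y hY
    apply Subtype.ext
    have h4 : (R : Subgroup C) ⊓ Y ≤ (R : Subgroup C) ⊓ (R' : Subgroup C) :=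
      le_inf inf_le_left ((le_of_eq hY).trans inf_le_left)
    have h5 := eq_of_le h4 (by rw [h1, card_pt_inf_dir hP hc hA R Y])
    have h6 : (R : Subgroup C) ⊓ (R' : Subgroup C) ≤ Y := h5 ▸ inf_le_right
    exact (eq_of_le (sup_le h6 Y.2.2.2) (by rw [h3.2.1, Y.2.2.1])).symm

include hP hc he hAP hA in
/-- The subgroups of order `p` different from `A`. -/
theorem exists_pt {E : Subgroup C} (hE : E ≤ P) (cE : Nat.card E = p) (hne : E ≠ A) :
    ∃ (R : Pt p P A) (X : Dir p P A), (R : Subgroup C) ⊓ X = E ∧ (X : Subgroup C) = E ⊔ A := by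
  have h1 := dir_of hc hAP hA hE cE hne
  obtain ⟨x, hxP, hx⟩ : ∃ x ∈ P, x ∉ E ⊔ A := by
    by_contra hcon
    push Not at hcon
    have h2 : P ≤ E ⊔ A := hcon
    have h3 := Subgroup.card_le_of_le h2
    rw [hP, h1.2.1] at h3
    exact absurd h3 (not_le.2 (Nat.pow_lt_pow_right one_lt (by norm_num)))
  have hx1 : x ≠ 1 := by
    rintro rfl
    exact hx (one_mem _)
  have hz := card_zpowers he hxP hx1
  have hzP : zpowers x ≤ P := (zpowers_le (H := P)).2 hxP
  have hzE : ¬ zpowers x ≤ E := fun h => hx (le_sup_left (a := E) (b := A) (h (mem_zpowers x)))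
  have c1 : Nat.card (zpowers x ⊔ E : Subgroup C) = p ^ 2 := by
    rw [card_sup hc hzP hE hz hzE, cE, sq]
  have c2 : (zpowers x ⊔ E) ⊓ A = ⊥ := by
    rw [inf_comm]
    refine (le_or_inf hA).resolve_left ?_
    intro h
    have h4 : E ⊔ A ≤ zpowers x ⊔ E := sup_le le_sup_right h
    have h5 := eq_of_le h4 (by rw [h1.2.1, c1])
    exact hx (h5 ▸ (le_sup_left (a := zpowers x) (b := E) (mem_zpowers x)))
  let R : Pt p P A := ⟨zpowers x ⊔ E, sup_le hzP hE, c1, c2⟩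
  let X : Dir p P A := ⟨E ⊔ A, h1⟩
  refine ⟨R, X, ?_, rfl⟩
  have h6 : E ≤ (R : Subgroup C) ⊓ X := le_inf le_sup_right le_sup_left
  exact (eq_of_le h6 (by rw [cE, card_pt_inf_dir hP hc hA R X])).symm

include hP hc he hAP hA in
theorem card_dir : Nat.card (Dir p P A) = p + 1 := by
  have h1 : ∀ x : {x : C // x ∈ P ∧ x ∉ A},
      zpowers (x : C) ⊔ A ≤ P ∧ Nat.card (zpowers (x : C) ⊔ A : Subgroup C) = p ^ 2 ∧ A ≤ zpowers (x : C) ⊔ A := by
    rintro ⟨x, hx, hxA⟩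
    have hx1 : x ≠ 1 := by
      rintro rfl
      exact hxA (one_mem _)
    refine dir_of hc hAP hA ((zpowers_le (H := P)).2 hx) (card_zpowers he hx hx1) ?_
    intro h
    exact hxA (h ▸ mem_zpowers x)
  have h2 := card_fiber (fun x : {x : C // x ∈ P ∧ x ∉ A} => (⟨_, h1 x⟩ : Dir p P A)) (p ^ 2 - p) (by
    intro X
    have e0 : p ^ 2 - p = Nat.card {x : C // x ∈ (X : Subgroup C) ∧ x ∉ A} := by
      rw [card_diff X.2.2.2, X.2.2.1, hA]
    rw [e0]
    refine Nat.card_congr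
      { toFun := fun x => ⟨x.1.1, ?_, x.1.2.2⟩
        invFun := fun x => ⟨⟨x.1, X.2.1 x.2.1, x.2.2⟩, ?_⟩
        left_inv := fun x => rfl
        right_inv := fun x => rfl }
    · have h3 := congrArg Subtype.val x.2
      have h4 : zpowers (x.1.1 : C) ⊔ A = X := h3
      rw [← h4]
      exact le_sup_left (a := zpowers (x.1.1 : C)) (mem_zpowers _)
    · apply Subtype.ext
      show zpowers (x : C) ⊔ A = X
      refine eq_of_le (sup_le ((zpowers_le (H := (X : Subgroup C))).2 x.2.1) X.2.2.2) ?_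
      rw [X.2.2.1]
      exact (h1 ⟨x.1, X.2.1 x.2.1, x.2.2⟩).2.1)
  rw [card_diff hAP, hP, hA] at h2
  have hp := one_lt (p := p)
  obtain ⟨q, rfl⟩ : ∃ q, p = q + 1 := ⟨p - 1, by omega⟩
  have e1 : (q + 1) ^ 2 - (q + 1) = (q + 1) * q := by
    have : (q + 1) ^ 2 = (q + 1) * q + (q + 1) := by ring
    omega
  have e2 : (q + 1) ^ 3 - (q + 1) = (q + 1 + 1) * ((q + 1) * q) := by
    have : (q + 1) ^ 3 = (q + 1 + 1) * ((q + 1) * q) + (q + 1) := by ring
    omega
  rw [e1, e2] at h2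
  have h3 : 0 < (q + 1) * q := by
    apply Nat.mul_pos <;> omega
  exact (Nat.eq_of_mul_eq_mul_right h3 h2).symm

/-- The subgroups of order `p` of `X` different from `A`. -/
abbrev Ln (p : ℕ) (X A : Subgroup C) : Type u := {E : Subgroup C // E ≤ X ∧ Nat.card E = p ∧ E ≠ A}

include he hA in
theorem card_ln (X : Dir p P A) : Nat.card (Ln p (X : Subgroup C) A) = p := by
  have h1 : ∀ x : {x : C // x ∈ (X : Subgroup C) ∧ x ∉ A},
      zpowers (x : C) ≤ X ∧ Nat.card (zpowers (x : C)) = p ∧ zpowers (x : C) ≠ A := by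
    rintro ⟨x, hx, hxA⟩
    have hx1 : x ≠ 1 := by
      rintro rfl
      exact hxA (one_mem _)
    refine ⟨(zpowers_le (H := (X : Subgroup C))).2 hx, card_zpowers he (X.2.1 hx) hx1, ?_⟩
    intro h
    exact hxA (h ▸ mem_zpowers x)
  have h2 := card_fiber (fun x : {x : C // x ∈ (X : Subgroup C) ∧ x ∉ A} => (⟨_, h1 x⟩ : Ln p (X : Subgroup C) A))
    (p - 1) (by
    intro E
    have h3 : E.1 ⊓ A = ⊥ := (le_or_inf E.2.2.1).resolve_left (fun h => E.2.2.2 (eq_of_le h (by rw [E.2.2.1, hA])))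
    have h4 : Nat.card {x : C // x ∈ E.1 ∧ x ∉ (⊥ : Subgroup C)} = p - 1 := by
      rw [card_diff bot_le, E.2.2.1, Subgroup.card_bot]
    rw [← h4]
    refine Nat.card_congr
      { toFun := fun x => ⟨x.1.1, ?_, ?_⟩
        invFun := fun x => ⟨⟨x.1, E.2.1 x.2.1, ?_⟩, ?_⟩
        left_inv := fun x => rfl
        right_inv := fun x => rfl }
    · have h5 : zpowers (x.1.1 : C) = E.1 := congrArg Subtype.val x.2
      rw [← h5]
      exact mem_zpowers _
    · intro h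
      rw [mem_bot] at h
      exact x.1.2.2 (h ▸ one_mem _)
    · intro h
      apply x.2.2
      have h6 : (x : C) ∈ E.1 ⊓ A := ⟨x.2.1, h⟩
      exact le_of_eq h3 h6
    · apply Subtype.ext
      show zpowers (x : C) = E.1
      refine eq_of_le ((zpowers_le (H := E.1)).2 x.2.1) ?_
      rw [E.2.2.1]
      refine card_zpowers he (X.2.1 (E.2.1 x.2.1)) ?_
      intro h
      exact x.2.2 (by rw [mem_bot]; exact h))
  rw [card_diff X.2.2.2, X.2.2.1, hA] at h2
  have hp := one_lt (p := p)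
  obtain ⟨q, rfl⟩ : ∃ q, p = q + 1 := ⟨p - 1, by omega⟩
  have e1 : (q + 1) ^ 2 - (q + 1) = (q + 1) * (q + 1 - 1) := by
    have : (q + 1) ^ 2 = (q + 1) * q + (q + 1) := by ring
    have h6 : q + 1 - 1 = q := rfl
    rw [h6]
    omega
  rw [e1] at h2
  have h3 : 0 < q + 1 - 1 := by omega
  exact (Nat.eq_of_mul_eq_mul_right h3 h2).symm

include hP hc he hAP hA in
theorem card_pt : Nat.card (Pt p P A) = p ^ 2 := by
  have hd := card_dir hP hc he hAP hA
  have hp := one_lt (p := p)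
  have h0 : 1 < Nat.card (Dir p P A) := by omega
  obtain ⟨X, Y, hXY⟩ := (Finite.one_lt_card_iff_nontrivial.1 h0).exists_pair_ne
  have hXY' : (X : Subgroup C) ≠ Y := fun h => hXY (Subtype.ext h)
  have hinf : (X : Subgroup C) ⊓ Y = A := by
    have h1 := card_inf hP hc X.2.1 Y.2.1 X.2.2.1 Y.2.2.1 hXY'
    exact (eq_of_le (le_inf X.2.2.2 Y.2.2.2) (by rw [h1, hA])).symm
  have hf : ∀ (R : Pt p P A) (Z : Dir p P A),
      (R : Subgroup C) ⊓ Z ≤ Z ∧ Nat.card ((R : Subgroup C) ⊓ Z : Subgroup C) = p ∧ (R : Subgroup C) ⊓ Z ≠ A := by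
    intro R Z
    refine ⟨inf_le_right, card_pt_inf_dir hP hc hA R Z, ?_⟩
    intro h
    have h3 : A ≤ (R : Subgroup C) := (le_of_eq h.symm).trans inf_le_left
    exact not_le_of_dir hA R.2.2.2 h3 rfl
  have hg : ∀ (E : Ln p (X : Subgroup C) A) (F : Ln p (Y : Subgroup C) A),
      E.1 ⊔ F.1 ≤ P ∧ Nat.card (E.1 ⊔ F.1 : Subgroup C) = p ^ 2 ∧ (E.1 ⊔ F.1) ⊓ A = ⊥ := by
    intro E F
    have hEF : ¬ E.1 ≤ F.1 := by
      intro h
      have h1 : E.1 ≤ A := (le_inf E.2.1 (h.trans F.2.1)).trans (le_of_eq hinf)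
      exact E.2.2.2 (eq_of_le h1 (by rw [E.2.2.1, hA]))
    have hE : E.1 ≤ P := E.2.1.trans X.2.1
    have hF : F.1 ≤ P := F.2.1.trans Y.2.1
    have h2 : Nat.card (E.1 ⊔ F.1 : Subgroup C) = p ^ 2 := by
      rw [card_sup hc hE hF E.2.2.1 hEF, F.2.2.1, sq]
    refine ⟨sup_le hE hF, h2, ?_⟩
    rw [inf_comm]
    refine (le_or_inf hA).resolve_left ?_
    intro h
    have h3 := dir_of hc hAP hA hE E.2.2.1 E.2.2.2
    have h4 := dir_of hc hAP hA hF F.2.2.1 F.2.2.2
    have h5 := eq_of_le (sup_le le_sup_left h : E.1 ⊔ A ≤ E.1 ⊔ F.1) (by rw [h3.2.1, h2])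
    have h6 := eq_of_le (sup_le le_sup_right h : F.1 ⊔ A ≤ E.1 ⊔ F.1) (by rw [h4.2.1, h2])
    have h7 := eq_of_le (sup_le E.2.1 X.2.2.2) (by rw [h3.2.1, X.2.2.1])
    have h8 := eq_of_le (sup_le F.2.1 Y.2.2.2) (by rw [h4.2.1, Y.2.2.1])
    exact hXY' (by rw [← h7, ← h8, h5, h6])
  have e : Pt p P A ≃ Ln p (X : Subgroup C) A × Ln p (Y : Subgroup C) A :=
    { toFun := fun R => (⟨_, hf R X⟩, ⟨_, hf R Y⟩)
      invFun := fun EF => ⟨_, hg EF.1 EF.2⟩
      left_inv := by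
        intro R
        apply Subtype.ext
        show (R : Subgroup C) ⊓ X ⊔ (R : Subgroup C) ⊓ Y = R
        refine eq_of_le (sup_le inf_le_left inf_le_left) ?_
        rw [R.2.2.1]
        exact (hg ⟨_, hf R X⟩ ⟨_, hf R Y⟩).2.1
      right_inv := by
        rintro ⟨E, F⟩
        have h1 := hf ⟨_, hg E F⟩ X
        have h2 := hf ⟨_, hg E F⟩ Y
        refine Prod.ext (Subtype.ext ?_) (Subtype.ext ?_)
        · show (E.1 ⊔ F.1) ⊓ (X : Subgroup C) = E.1
          exact (eq_of_le (le_inf le_sup_left E.2.1) (by rw [E.2.2.1]; exact h1.2.1.symm)).symm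
        · show (E.1 ⊔ F.1) ⊓ (Y : Subgroup C) = F.1
          exact (eq_of_le (le_inf le_sup_right F.2.1) (by rw [F.2.2.1]; exact h2.2.1.symm)).symm }
  rw [Nat.card_congr e, Nat.card_prod, card_ln he hA X, card_ln he hA Y, sq]

include hP hc he hAP hA in
/-- PS-2a. -/
theorem geom : Nat.card (Dir p P A) = p + 1 ∧ Nat.card (Pt p P A) = p ^ 2 ∧
    (∀ R R' : Pt p P A, R ≠ R' → ∃! X : Dir p P A, (R : Subgroup C) ⊓ X = (R' : Subgroup C) ⊓ X) :=
  ⟨card_dir hP hc he hAP hA, card_pt hP hc he hAP hA, rel hP hc hAP hA⟩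

end main

end Cfsg.Agent.H118.PSq.Geom
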